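import Mathlib
import Cfsg.Agent.Lib.Helper94.OMG.Defs
import Cfsg.Agent.Lib.Helper14.Eichler
import Cfsg.Agent.Lib.Helper44.Char2Forms

/-!
# Project OMG (S2415): package [KILLZ]

With the short root elements of the indices in `S`, a vector whose hyperbolic part has a non-zero
coordinate at an index of `S` is moved by `K` to a vector with zero anisotropic part; the
hyperbolic coordinates outside `S` do not change.
-/

set_option autoImplicit false
open scoped Matrix MatrixGroups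

namespace Cfsg.Agent.Lib.Helper15.OMG

open Cfsg.Agent.Lib.Helper31.Siegel Cfsg.Agent.Lib.Helper32.OPG Cfsg.Agent.Lib.Helper64.OParM
open Cfsg.Agent.Lib.Helper23.OHyp Cfsg.Agent.Lib.Helper94.OMG

universe u

/-- Transport of membership in the isometry group along an equality of forms. -/
theorem mem_iso_of_eq {ι : Type} [Fintype ι] [DecidableEq ι] {F : Type u} [Field F]
    (Q Q' : (ι → F) → F) (h : Q = Q') (g : ↥(Cfsg.isometryGroup F Q)) :
    (g : GL ι F) ∈ Cfsg.isometryGroup F Q' := by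
  subst h
  exact g.2

/-- Existence of the Eichler transformation `E(u, w)` of the minus space. -/
theorem exists_eich {F : Type u} [Field F] [Fintype F] {k : ℕ} {a b : F} (hab : Aniso a b)
    (u w : MI k → F) (hu : QM k a b u = 0) (huw : BM k a b u w = 0) :
    ∃ σ : ↥(GM k F a b), IsEich a b u w σ := by
  classical
  have hQ := Cfsg.Agent.Lib.Helper44.minusQF_nondegenerate_all k F a b hab
  have hcoe := Cfsg.Agent.Lib.Helper14.minusQF_coe (m := k) (F := F) a b
  have hu' : (Cfsg.Agent.Lib.Helper14.minusQF k F a b) u = 0 := by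
    have h1 : (⇑(Cfsg.Agent.Lib.Helper14.minusQF k F a b)) u = Cfsg.quadFormMinus k F a b u := by
      rw [hcoe]
    rw [h1]; exact hu
  have huw' : QuadraticMap.polar (⇑(Cfsg.Agent.Lib.Helper14.minusQF k F a b)) u w = 0 := by
    rw [hcoe]; exact huw
  refine ⟨⟨((Cfsg.Agent.Lib.Helper14.eichElt (Cfsg.Agent.Lib.Helper14.minusQF k F a b) hQ u w
    hu' huw' : ↥(Cfsg.isometryGroup F ⇑(Cfsg.Agent.Lib.Helper14.minusQF k F a b))) :
      GL (MI k) F), mem_iso_of_eq _ _ hcoe _⟩, ?_⟩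
  intro x
  have h := Cfsg.Agent.Lib.Helper14.eichMat_mulVec (Cfsg.Agent.Lib.Helper14.minusQF k F a b) u w x
  have h1 : (Cfsg.Agent.Lib.Helper14.minusQF k F a b) w = Cfsg.quadFormMinus k F a b w := by
    have h2 : (⇑(Cfsg.Agent.Lib.Helper14.minusQF k F a b)) w = Cfsg.quadFormMinus k F a b w := by
      rw [hcoe]
    exact h2
  rw [h1, hcoe] at h
  exact h

/-- One Eichler element `E(u, w)`, `u` the basis vector at `inl j₀` with dual coordinate `j₁`,
kills the anisotropic part of a vector whose coordinate at `inl j₁` is non-zero. -/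
theorem killZ_aux {F : Type u} [Field F] [Fintype F] {k : ℕ} {a b : F} (hab : Aniso a b)
    (K : Subgroup ↥(GM k F a b)) (j₀ j₁ : Fin k ⊕ Fin k)
    (hu : QM k a b (Pi.single (Sum.inl j₀) 1) = 0)
    (hB : ∀ x : MI k → F, BM k a b (Pi.single (Sum.inl j₀) 1) x = x (Sum.inl j₁))
    (hK : ∀ w : MI k → F, IsZ w → ∀ σ : ↥(GM k F a b),
      IsEich a b (Pi.single (Sum.inl j₀) 1) w σ → σ ∈ K)
    (v : MI k → F) (hv : v (Sum.inl j₁) ≠ 0) :
    ∃ g ∈ K, (∀ t : Fin 2, (matM g *ᵥ v) (Sum.inr t) = 0) ∧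
      ∀ j : Fin k ⊕ Fin k, j ≠ j₀ → (matM g *ᵥ v) (Sum.inl j) = v (Sum.inl j) := by
  classical
  obtain ⟨w, hw⟩ : ∃ w : MI k → F,
      w = (-(v (Sum.inl j₁))⁻¹) • (Sum.elim (0 : Fin k ⊕ Fin k → F) (v ∘ Sum.inr) : MI k → F) :=
    ⟨_, rfl⟩
  have hwZ : IsZ w := by
    intro j
    rw [hw]
    simp
  have hwr : ∀ t : Fin 2, w (Sum.inr t) = -(v (Sum.inl j₁))⁻¹ * v (Sum.inr t) := by
    intro t
    rw [hw]
    simp
  obtain ⟨σ, hσ⟩ := exists_eich hab (Pi.single (Sum.inl j₀) 1) w hu (by rw [hB]; exact hwZ j₁)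
  refine ⟨σ, hK w hwZ σ hσ, ?_, ?_⟩
  · intro t
    rw [hσ v, hB]
    simp only [Pi.add_apply, Pi.sub_apply, Pi.smul_apply, smul_eq_mul, Pi.single_apply,
      reduceCtorEq, if_false, mul_zero, sub_zero, hwr]
    field_simp
    ring
  · intro j hj
    rw [hσ v, hB]
    have hne : (Sum.inl j : MI k) ≠ Sum.inl j₀ := fun h => hj (Sum.inl.inj h)
    simp only [Pi.add_apply, Pi.sub_apply, Pi.smul_apply, smul_eq_mul, Pi.single_apply,
      if_neg hne, mul_zero, sub_zero, hwZ j, add_zero]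

/-- [KILLZ] -/
theorem pkgKillZ : PkgKillZ.{u} := by
  intro F _ _ k a b hab S K hK v hv
  classical
  obtain ⟨i, hiS, hx | hy⟩ := hv
  · -- `x_i ≠ 0`: use `E(f_i, w)`
    obtain ⟨g, hgK, hg1, hg2⟩ := killZ_aux hab K (Sum.inr i) (Sum.inl i)
      (by
        show Cfsg.quadFormMinus k F a b (Pi.single (Sum.inl (Sum.inr i)) 1) = 0
        simp [Cfsg.quadFormMinus, Pi.single_apply])
      (fun x => Cfsg.Agent.Lib.Helper14.minus_polar_inr k F a b i x)
      (fun w hw σ hσ => hK i hiS w hw σ (Or.inr hσ)) v hx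
    refine ⟨g, hgK, hg1, ?_⟩
    intro i' hi'
    refine ⟨hg2 (Sum.inl i') (by simp), hg2 (Sum.inr i') ?_⟩
    intro h
    exact hi' (by rw [Sum.inr.inj h]; exact hiS)
  · -- `y_i ≠ 0`: use `E(e_i, w)`
    obtain ⟨g, hgK, hg1, hg2⟩ := killZ_aux hab K (Sum.inl i) (Sum.inr i)
      (by
        show Cfsg.quadFormMinus k F a b (Pi.single (Sum.inl (Sum.inl i)) 1) = 0
        simp [Cfsg.quadFormMinus, Pi.single_apply])
      (fun x => Cfsg.Agent.Lib.Helper14.minus_polar_inl k F a b i x)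
      (fun w hw σ hσ => hK i hiS w hw σ (Or.inl hσ)) v hy
    refine ⟨g, hgK, hg1, ?_⟩
    intro i' hi'
    refine ⟨hg2 (Sum.inl i') ?_, hg2 (Sum.inr i') (by simp)⟩
    intro h
    exact hi' (by rw [Sum.inl.inj h]; exact hiS)

end Cfsg.Agent.Lib.Helper15.OMG
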